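import Cfsg.Agent.H797.FQ.OC3

/-!
# The centre of the radical of the parabolic subgroup of type `C₃` of `F₄(2^f)` (S2452, helper557)

`K` a field of characteristic two, `θ = vec chevF4 4 47` the highest root, `σ = vec chevF4 4 44` the highest short root.

* `Z1 K` : the product of the root groups of `θ` and of the six short roots of level one for the node `3`;
* `z_one` : every element of `Z1 K` is conjugate into `X_θ X_σ`, under the Levi subgroup.
-/

set_option autoImplicit false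
set_option linter.unusedSectionVars false

namespace Cfsg.Agent.H557.FE

open Cfsg.Agent.Tits.Exchange Cfsg.Agent.Nodes.BNOf Cfsg.Agent.Nodes.RGDChev Cfsg.Agent.KFacts.RgdChevCoord
  Cfsg.Agent.H225.PPow Cfsg.Agent.H701.F43.Cent Cfsg.Agent.H797.FQ
open Cfsg.Lie Cfsg.Agent.ChevalleyStructure

universe u

variable {K : Type u} [Field K]

/-- the short roots of level one -/
def sh : List ℕ := [29, 36, 38, 39, 40, 44]

/-- the long roots of level one -/
def lo : List ℕ := [24, 26, 31, 32, 42, 43, 45, 46]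

theorem sh_L : ∀ s ∈ sh, s ∈ L14 := by decide

theorem lo_L : ∀ s ∈ lo, s ∈ L14 := by decide

theorem L_cases : ∀ s ∈ L14, s ∈ lo ∨ s ∈ sh := by decide

theorem sh_lo : ∀ s ∈ sh, s ∉ lo := by decide

theorem tab_lo : ∀ γ ∈ idxM, ∀ m ∈ lo, ∀ q ∈ ctr γ m, (q.1 ∈ lo ∨ 2 ∣ q.2.1) ∧ q.2.2.2 ≠ 0 := by decide +kernel

theorem tab_pos : ∀ γ ∈ idxM, ∀ m ∈ sh, ∀ q ∈ ctr γ m, q.2.2.2 ≠ 0 := by decide +kernel

/-- the contributions of the short roots -/
def cs (γ m : ℕ) : List (ℕ × ℤ × ℕ × ℕ) := (ctr γ m).filter fun q => q.1 ∉ lo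

/-- elements with short coordinates -/
def RZ (u : ↥(chevF4.group K)) (c : ℕ → K) : Prop := R u c ∧ ∀ s ∈ lo, c s = 0

theorem sum_cs {c : ℕ → K} (hc : ∀ s ∈ lo, c s = 0) (t : K) : ∀ l : List (ℕ × ℤ × ℕ × ℕ), (∀ q ∈ l, q.2.2.2 ≠ 0) →
    (l.map fun q => (q.2.1 : K) * t ^ q.2.2.1 * (c q.1) ^ q.2.2.2).sum =
      ((l.filter fun q => q.1 ∉ lo).map fun q => (q.2.1 : K) * t ^ q.2.2.1 * (c q.1) ^ q.2.2.2).sum := by
  intro l
  induction l with
  | nil => intro _; rfl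
  | cons a l ih =>
    intro h
    rw [List.map_cons, List.sum_cons, ih fun q hq => h q (List.mem_cons_of_mem _ hq)]
    by_cases ha : a.1 ∈ lo
    · rw [List.filter_cons_of_neg (by simpa using ha), hc _ ha, zero_pow (h a List.mem_cons_self), mul_zero, zero_add]
    · rw [List.filter_cons_of_pos (by simpa using ha), List.map_cons, List.sum_cons]

/-- conjugation by a root element of the Levi subgroup -/
theorem RZ.conj (h2 : (2 : K) = 0) {u : ↥(chevF4.group K)} {c : ℕ → K} (hu : RZ u c) {γ : ℕ} (hγ : γ ∈ idxM) (t : K) :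
    ∃ c', RZ (e γ t * u * (e γ t)⁻¹) c' ∧ ∀ m ∈ sh, c' m = c m +
      ((cs γ m).map fun q => (q.2.1 : K) * t ^ q.2.2.1 * (c q.1) ^ q.2.2.2).sum := by
  refine ⟨MM' γ t c, ⟨hu.1.conj hγ t, fun m hm => ?_⟩, fun m hm => ?_⟩
  · rw [MM'_apply γ t c (lo_L m hm), hu.2 m hm, zero_add]
    apply List.sum_eq_zero
    intro x hx
    rw [List.mem_map] at hx
    obtain ⟨q, hq, rfl⟩ := hx
    obtain ⟨h3, h4⟩ := tab_lo γ hγ m hm q hq
    rcases h3 with h3 | ⟨k, hk⟩
    · rw [hu.2 _ h3, zero_pow h4, mul_zero]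
    · rw [hk, Int.cast_mul, Int.cast_ofNat, h2, zero_mul, zero_mul, zero_mul]
  · rw [MM'_apply γ t c (sh_L m hm), sum_cs hu.2 t _ (tab_pos γ hγ m hm)]
    rfl

/-- the group generated by the root elements of the Levi subgroup -/
noncomputable def LM (K : Type u) [Field K] : Subgroup ↥(chevF4.group K) :=
  Subgroup.closure {x | ∃ γ ∈ idxM, ∃ t : K, x = e γ t}

theorem e_mem_LM {γ : ℕ} (hγ : γ ∈ idxM) (t : K) : e γ t ∈ LM K := Subgroup.subset_closure ⟨γ, hγ, t, rfl⟩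

theorem conj_conj (a g u : ↥(chevF4.group K)) : a * (g * u * g⁻¹) * a⁻¹ = (a * g) * u * (a * g)⁻¹ := by group

theorem cs41 : cs 41 44 = [(29, -1, 1, 1)] := by decide +kernel
theorem cs37 : cs 37 44 = [(36, -1, 1, 1)] := by decide +kernel
theorem cs35 : cs 35 44 = [(38, -1, 1, 1)] := by decide +kernel
theorem cs34 : cs 34 44 = [(39, 1, 1, 1)] := by decide +kernel
theorem cs33 : cs 33 44 = [(40, 1, 1, 1)] := by decide +kernel

/-- a nonzero coordinate can be moved to the highest short root -/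
theorem exists_44 (h2 : (2 : K) = 0) {u : ↥(chevF4.group K)} {c : ℕ → K} (hu : RZ u c) (h : ∃ s ∈ sh, c s ≠ 0) :
    ∃ g ∈ LM K, ∃ c', RZ (g * u * g⁻¹) c' ∧ c' 44 ≠ 0 := by
  by_cases h44 : c 44 = 0
  · have key : ∀ {γ s : ℕ} {N : ℤ}, γ ∈ idxM → cs γ 44 = [(s, N, 1, 1)] → (N = 1 ∨ N = -1) → c s ≠ 0 →
        ∃ g ∈ LM K, ∃ c', RZ (g * u * g⁻¹) c' ∧ c' 44 ≠ 0 := by
      intro γ s N hγ ht hN hs
      obtain ⟨c', h1, h3⟩ := hu.conj h2 hγ 1
      refine ⟨_, e_mem_LM hγ 1, c', h1, ?_⟩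
      rw [h3 44 (by decide), h44, ht, List.map_cons, List.map_nil, List.sum_cons, List.sum_nil]
      rcases hN with rfl | rfl
      · simpa using hs
      · simpa using hs
    obtain ⟨s, hs, hne⟩ := h
    simp only [sh, List.mem_cons, List.not_mem_nil, or_false] at hs
    rcases hs with rfl | rfl | rfl | rfl | rfl | rfl
    · exact key (by decide) cs41 (by decide) hne
    · exact key (by decide) cs37 (by decide) hne
    · exact key (by decide) cs35 (by decide) hne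
    · exact key (by decide) cs34 (by decide) hne
    · exact key (by decide) cs33 (by decide) hne
    · exact absurd h44 hne
  · refine ⟨1, one_mem _, c, ?_, h44⟩
    rwa [one_mul, inv_one, mul_one]

/-- the steps: node, coordinate, sign -/
def stp : List (ℕ × ℕ × ℤ) := [(14, 40, 1), (13, 39, 1), (12, 38, -1), (10, 36, -1), (6, 29, -1)]

theorem tab_stp : ∀ q ∈ stp, q.1 ∈ idxM ∧ q.2.1 ∈ sh ∧ (q.2.2 = 1 ∨ q.2.2 = -1) ∧ cs q.1 q.2.1 = [(44, q.2.2, 1, 1)] ∧
    ∀ m ∈ sh, m ≠ 29 → m ≠ q.2.1 → cs q.1 m = [] := by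
  decide +kernel

theorem tab_44 : ∀ q ∈ stp, (44 : ℕ) ≠ q.2.1 := by decide

/-- one step -/
theorem step (h2 : (2 : K) = 0) {u : ↥(chevF4.group K)} {c : ℕ → K} (hu : RZ u c) (h44 : c 44 ≠ 0)
    {q : ℕ × ℕ × ℤ} (hq : q ∈ stp) :
    ∃ g ∈ LM K, ∃ c', RZ (g * u * g⁻¹) c' ∧ c' 44 ≠ 0 ∧ c' q.2.1 = 0 ∧
      ∀ m ∈ sh, m ≠ 29 → m ≠ q.2.1 → c' m = c m := by
  obtain ⟨h1, h3, h4, h5, h6⟩ := tab_stp q hq
  obtain ⟨c', hc', h7⟩ := hu.conj h2 h1 (-(q.2.2 : K) * (c q.2.1 / c 44))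
  have h8 : ∀ m ∈ sh, m ≠ 29 → m ≠ q.2.1 → c' m = c m := by
    intro m hm hm1 hm2
    rw [h7 m hm, h6 m hm hm1 hm2, List.map_nil, List.sum_nil, add_zero]
  refine ⟨_, e_mem_LM h1 _, c', hc', ?_, ?_, h8⟩
  · have h9 : (44 : ℕ) ≠ q.2.1 := tab_44 q hq
    rw [h8 44 (by decide) (by decide) h9]
    exact h44
  · rw [h7 _ h3, h5, List.map_cons, List.map_nil, List.sum_cons, List.sum_nil]
    have h10 : (q.2.2 : K) * (q.2.2 : K) = 1 := by
      rcases h4 with h | h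
      · rw [h]; norm_num
      · rw [h]; norm_num
    have h11 : c q.2.1 / c 44 * c 44 = c q.2.1 := div_mul_cancel₀ _ h44
    simp only [pow_one, add_zero]
    calc c q.2.1 + (q.2.2 : K) * (-(q.2.2 : K) * (c q.2.1 / c 44)) * c 44
        = c q.2.1 - ((q.2.2 : K) * (q.2.2 : K)) * (c q.2.1 / c 44 * c 44) := by ring
      _ = 0 := by rw [h10, h11]; ring

/-- **the normal form** -/
theorem RZ.normal (h2 : (2 : K) = 0) {u : ↥(chevF4.group K)} {c : ℕ → K} (hu : RZ u c) :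
    ∃ g ∈ LM K, g * u * g⁻¹ ∈ XX chevF4 4 K (vec chevF4 4 47) ⊔ XX chevF4 4 K (vec chevF4 4 44) := by
  have fin : ∀ {v : ↥(chevF4.group K)} {d : ℕ → K}, RZ v d → (∀ m ∈ sh, m ≠ 44 → d m = 0) →
      v ∈ XX chevF4 4 K (vec chevF4 4 47) ⊔ XX chevF4 4 K (vec chevF4 4 44) := by
    rintro v d ⟨⟨b, rfl⟩, h3⟩ h4
    have h5 : E L14 d = e 44 (d 44) := by
      rw [← E_single L14_nodup (d 44) (show 44 ∈ L14 by decide)]
      refine E_congr fun s hs => ?_
      by_cases h : s = 44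
      · subst h
        rw [Pi.single_eq_same]
      · rw [Pi.single_eq_of_ne h]
        rcases L_cases s hs with h6 | h6
        · exact h3 s h6
        · exact h4 s h6 h
    rw [h5]
    exact mul_mem (Subgroup.mem_sup_right ((mem_XX_vec hF (by rw [nroots]; norm_num)).2 ⟨_, rfl⟩))
      (Subgroup.mem_sup_left ((mem_XX_vec hF (by rw [nroots]; norm_num)).2 ⟨_, rfl⟩))
  by_cases h : ∃ s ∈ sh, c s ≠ 0
  · obtain ⟨g0, hg0, c0, hc0, h0⟩ := exists_44 h2 hu h
    obtain ⟨g1, hg1, c1, hc1, h1, z1, k1⟩ := step h2 hc0 h0 (show (14, 40, 1) ∈ stp by decide)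
    obtain ⟨g2, hg2, c2, hc2, h2', z2, k2⟩ := step h2 hc1 h1 (show (13, 39, 1) ∈ stp by decide)
    obtain ⟨g3, hg3, c3, hc3, h3, z3, k3⟩ := step h2 hc2 h2' (show (12, 38, -1) ∈ stp by decide)
    obtain ⟨g4, hg4, c4, hc4, h4, z4, k4⟩ := step h2 hc3 h3 (show (10, 36, -1) ∈ stp by decide)
    obtain ⟨g5, hg5, c5, hc5, h5, z5, k5⟩ := step h2 hc4 h4 (show (6, 29, -1) ∈ stp by decide)
    refine ⟨g5 * g4 * g3 * g2 * g1 * g0, mul_mem (mul_mem (mul_mem (mul_mem (mul_mem hg5 hg4) hg3) hg2) hg1) hg0, ?_⟩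
    rw [conj_conj, conj_conj, conj_conj, conj_conj, conj_conj] at hc5
    refine fin hc5 ?_
    intro m hm hne
    simp only at z1 z2 z3 z4 z5 k1 k2 k3 k4 k5
    simp only [sh, List.mem_cons, List.not_mem_nil, or_false] at hm
    rcases hm with rfl | rfl | rfl | rfl | rfl | rfl
    · exact z5
    · rw [k5 36 (by decide) (by decide) (by decide), z4]
    · rw [k5 38 (by decide) (by decide) (by decide), k4 38 (by decide) (by decide) (by decide), z3]
    · rw [k5 39 (by decide) (by decide) (by decide), k4 39 (by decide) (by decide) (by decide),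
        k3 39 (by decide) (by decide) (by decide), z2]
    · rw [k5 40 (by decide) (by decide) (by decide), k4 40 (by decide) (by decide) (by decide),
        k3 40 (by decide) (by decide) (by decide), k2 40 (by decide) (by decide) (by decide), z1]
    · exact absurd rfl hne
  · push Not at h
    refine ⟨1, one_mem _, ?_⟩
    rw [one_mul, inv_one, mul_one]
    exact fin hu fun m hm _ => h m hm

/-- the centre of the radical -/
noncomputable def Z1 (K : Type u) [Field K] : Subgroup ↥(chevF4.group K) :=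
  RGD.Sup (XX chevF4 4 K) {x | ∃ r ∈ sh ++ [47], x = vec chevF4 4 r}

/-- the elements with short coordinates -/
noncomputable def RZS (K : Type u) [Field K] : Subgroup ↥(chevF4.group K) where
  carrier := {u | ∃ c, RZ u c}
  mul_mem' := by
    rintro u v ⟨c, hc, hc'⟩ ⟨d, hd, hd'⟩
    refine ⟨_, hc.mul hd, fun s hs => ?_⟩
    rw [Pi.add_apply, hc' s hs, hd' s hs, add_zero]
  one_mem' := ⟨0, R.one, fun _ _ => rfl⟩
  inv_mem' := by
    rintro u ⟨c, hc, hc'⟩
    refine ⟨_, hc.inv, fun s hs => ?_⟩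
    rw [Pi.neg_apply, hc' s hs, neg_zero]

theorem tab_Z : ∀ r ∈ sh ++ [47], r ∈ idxV ∧ r < chevF4.nroots ∧ r ∉ lo := by decide +kernel

theorem lo_47 : ∀ s ∈ lo, s ≠ 47 := by decide

theorem Z1_le : Z1 K ≤ RZS K := RGD.Sup_le fun x hx => by
  obtain ⟨r, hr, rfl⟩ := hx
  obtain ⟨h1, h2, h3⟩ := tab_Z r hr
  intro y hy
  obtain ⟨t, rfl⟩ := (mem_XX_vec hF h2).1 hy
  refine ⟨_, R.sg h1 t, fun s hs => ?_⟩
  rw [sg_apply (lo_47 s hs), if_neg]
  rintro rfl
  exact h3 hs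

/-- **The elements of the centre of the radical.** -/
theorem z_one [CharP K 2] {u : ↥(chevF4.group K)} (hu : u ∈ Z1 K) :
    ∃ g ∈ LM K, g * u * g⁻¹ ∈ XX chevF4 4 K (vec chevF4 4 47) ⊔ XX chevF4 4 K (vec chevF4 4 44) := by
  obtain ⟨c, hc⟩ := Z1_le hu
  exact hc.normal (CharTwo.two_eq_zero)

end Cfsg.Agent.H557.FE
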